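import Cfsg.Agent.SplitField32.Basic

/-!
# Monomial characters are realised over a field containing the values of the linear character
-/

set_option autoImplicit false
set_option linter.style.haveILetI false

namespace CfsgLib.SplitField32

open Cfsg CfsgLib.Chars CfsgLib.Chars.Induced Matrix

universe u

variable {K : Subfield ℂ} {G : Type u} [Group G] [Fintype G]

theorem isKChar_indFun (H : Subgroup G) (l : H →* ℂˣ) (hl : ∀ h, ((l h : ℂˣ) : ℂ) ∈ K) :
    IsKChar K G (indFun H fun h => (l h : ℂ)) := by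
  classical
  let A : H →* Matrix (Fin 1) (Fin 1) ℂ :=
    ((Matrix.scalar (Fin 1) : ℂ →+* Matrix (Fin 1) (Fin 1) ℂ).toMonoidHom).comp
      ((Units.coeHom ℂ).comp l)
  let M : G →* Matrix ((G ⧸ H) × Fin 1) ((G ⧸ H) × Fin 1) ℂ :=
    { toFun := indMat H A
      map_one' := indMat_one H A
      map_mul' := indMat_mul H A }
  have hent : ∀ g i j, M g i j ∈ K := by
    intro g i j
    show extendMat H A _ i.2 j.2 ∈ K
    by_cases hg : i.1.out⁻¹ * g * j.1.out ∈ H
    · rw [extendMat, dif_pos hg]
      show Matrix.scalar (Fin 1) ((l _ : ℂˣ) : ℂ) i.2 j.2 ∈ K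
      simp only [Matrix.scalar_apply, Subsingleton.elim i.2 j.2, Matrix.diagonal_apply_eq]
      exact hl _
    · rw [extendMat, dif_neg hg]
      exact K.zero_mem
  convert isKChar_of_matrixHom M hent using 1
  funext g
  set θ : H → ℂ := fun h => (l h : ℂ) with hθ
  have hθc : IsClassFunction H θ := fun a x => by
    simp only [hθ, map_mul, map_inv, Units.val_mul]
    rw [mul_comm ((l x : ℂˣ) : ℂ), mul_assoc, ← Units.val_mul, mul_inv_cancel, Units.val_one, mul_one]
  have h1 : Matrix.trace (M g) = ∑ d : G ⧸ H, extendByZero H θ (d.out⁻¹ * g * d.out) := by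
    simp only [Matrix.trace, Matrix.diag]
    rw [Fintype.sum_prod_type]
    refine Finset.sum_congr rfl fun d _ => ?_
    rw [Fin.sum_univ_one]
    show extendMat H A (d.out⁻¹ * g * d.out) 0 0 = _
    by_cases hg : d.out⁻¹ * g * d.out ∈ H
    · rw [extendMat, dif_pos hg, extendByZero_mem _ hg]
      show Matrix.scalar (Fin 1) _ 0 0 = _
      simp [Matrix.scalar_apply, hθ]
    · rw [extendMat, dif_neg hg, extendByZero_notMem _ hg]
      rfl
  rw [h1]
  simp only [indFun]
  have h2 : ∑ x : G, extendByZero H θ (x⁻¹ * g * x) =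
      ∑ p : (G ⧸ H) × H, extendByZero H θ (p.1.out⁻¹ * g * p.1.out) := by
    symm
    refine Fintype.sum_bijective (fun p : (G ⧸ H) × H => p.1.out * (p.2 : G)) ⟨?_, ?_⟩ _ _ ?_
    · rintro ⟨d, h⟩ ⟨d', h'⟩ he
      have hd : d = d' := by
        have := congrArg (QuotientGroup.mk : G → G ⧸ H) he
        simpa [QuotientGroup.mk_mul_of_mem] using this
      subst hd
      simpa using he
    · intro x
      refine ⟨(QuotientGroup.mk x, ⟨(QuotientGroup.mk x : G ⧸ H).out⁻¹ * x, ?_⟩), by simp⟩
      rw [← QuotientGroup.eq, QuotientGroup.out_eq']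
    · rintro ⟨d, h⟩
      simpa [mul_assoc] using (extendByZero_conj hθc h⁻¹ (d.out⁻¹ * g * d.out)).symm
  rw [h2, Fintype.sum_prod_type, Finset.mul_sum]
  refine Finset.sum_congr rfl fun d _ => ?_
  dsimp only
  rw [Finset.sum_const, Finset.card_univ, nsmul_eq_mul, ← Nat.card_eq_fintype_card, ← mul_assoc,
    inv_mul_cancel₀ (card_subgroup_ne_zero H), one_mul]

end CfsgLib.SplitField32
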