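import Cfsg.Agent.Chars.Basic
import Cfsg.Agent.Chars.Basic.Orthogonality
import Cfsg.Agent.Chars.Induced.Rep
import Mathlib.RepresentationTheory.Character
import Mathlib.LinearAlgebra.Matrix.ToLin

/-!
# Characters realised over a subfield of the complex numbers

`IsKChar K G f`: the function `f` is the character of a representation with entries in `K`.
An irreducible character lying in the integral span of such characters is one of them.
-/

set_option autoImplicit false
set_option linter.style.haveILetI false

namespace CfsgLib.SplitField32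

open Cfsg CfsgLib.Chars Module Matrix
open scoped ComplexConjugate

universe u v

variable (K : Subfield ℂ) {G : Type u} [Group G]

/-- The character of a representation over `K`, read in `ℂ`. -/
noncomputable def kChar {V : Type v} [AddCommGroup V] [Module K V] (R : Representation K G V) :
    G → ℂ :=
  fun g => ((R.character g : K) : ℂ)

variable (G) in
/-- `f` is the character of a representation with entries in `K`. -/
def IsKChar (f : G → ℂ) : Prop :=
  ∃ (d : ℕ) (R : Representation K G (Fin d → K)), kChar K R = f

variable {K}

theorem isKChar_kChar {V : Type v} [AddCommGroup V] [Module K V] [FiniteDimensional K V]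
    (R : Representation K G V) : IsKChar K G (kChar K R) := by
  let e := (Module.finBasis K V).equivFun
  let S : Representation K G (Fin (finrank K V) → K) :=
    { toFun := fun g => e.conj (R g)
      map_one' := by ext w; simp [LinearEquiv.conj_apply]
      map_mul' := fun g h => by ext w; simp [LinearEquiv.conj_apply] }
  refine ⟨finrank K V, S, ?_⟩
  funext g
  simp only [kChar, Representation.character]
  rw [show S g = e.conj (R g) from rfl, LinearMap.trace_conj']

theorem isKChar_zero : IsKChar K G 0 := by
  refine ⟨0, 1, ?_⟩
  funext g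
  simp [kChar, Representation.character, Subsingleton.elim ((1 : Representation K G (Fin 0 → K)) g) 0]

theorem isKChar_add {f f' : G → ℂ} (h : IsKChar K G f) (h' : IsKChar K G f') :
    IsKChar K G (f + f') := by
  obtain ⟨d, R, rfl⟩ := h
  obtain ⟨d', R', rfl⟩ := h'
  have : kChar K (R.prod R') = kChar K R + kChar K R' := by
    funext g
    simp only [kChar, Pi.add_apply, Representation.character]
    rw [show (R.prod R') g = (R g).prodMap (R' g) from rfl, LinearMap.trace_prodMap']
    simp
  rw [← this]
  exact isKChar_kChar _

theorem isCharacter_of_isKChar {f : G → ℂ} (h : IsKChar K G f) : IsCharacter G f := by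
  obtain ⟨d, R, rfl⟩ := h
  let A : G →* Matrix (Fin d) (Fin d) ℂ :=
    (K.subtype.mapMatrix.toMonoidHom).comp
      ((LinearMap.toMatrixAlgEquiv' (R := K) (n := Fin d)).toMulEquiv.toMonoidHom.comp R)
  have hA := CfsgLib.Chars.Induced.isCharacter_of_matrixHom A
  convert hA using 1
  funext g
  simp only [kChar, A, MonoidHom.comp_apply]
  show ((LinearMap.trace K (Fin d → K) (R g) : K) : ℂ) =
    Matrix.trace ((LinearMap.toMatrix' (R g)).map K.subtype)
  rw [LinearMap.trace_eq_matrix_trace K (Pi.basisFun K (Fin d)), LinearMap.toMatrix_eq_toMatrix']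
  simp [Matrix.trace]

/-- A complex matrix representation with all entries in `K` has its trace function realised. -/
theorem isKChar_of_matrixHom {ι : Type v} [Fintype ι] [DecidableEq ι]
    (M : G →* Matrix ι ι ℂ) (hM : ∀ g i j, M g i j ∈ K) :
    IsKChar K G (fun g => (M g).trace) := by
  have hinj : Function.Injective (fun A : Matrix ι ι K => A.map K.subtype) :=
    fun A B h => by ext i j; exact congrFun (congrFun h i) j
  let N : G → Matrix ι ι K := fun g => Matrix.of fun i j => ⟨M g i j, hM g i j⟩
  have hN : ∀ g, (N g).map K.subtype = M g := fun g => rfl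
  let MK : G →* Matrix ι ι K :=
    { toFun := N
      map_one' := by
        apply hinj
        show (N 1).map K.subtype = (1 : Matrix ι ι K).map K.subtype
        rw [hN, map_one, Matrix.map_one _ (map_zero _) (map_one _)]
      map_mul' := fun g h => by
        apply hinj
        show (N (g * h)).map K.subtype = (N g * N h).map K.subtype
        rw [Matrix.map_mul, hN, hN, hN, map_mul] }
  let R : Representation K G (ι → K) :=
    (Matrix.toLinAlgEquiv' (R := K) (n := ι)).toMulEquiv.toMonoidHom.comp MK
  have h := isKChar_kChar R
  convert h using 1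
  funext g
  show (M g).trace = ((LinearMap.trace K (ι → K) (Matrix.toLin' (MK g)) : K) : ℂ)
  rw [Matrix.trace_toLin'_eq]
  simp only [Matrix.trace, Matrix.diag, AddSubmonoidClass.coe_finsetSum]
  rfl

section inner

variable [Finite G]

theorem classInner_kChar [Fintype G] {V W : Type v} [AddCommGroup V] [Module K V] [FiniteDimensional K V]
    [AddCommGroup W] [Module K W] [FiniteDimensional K W]
    (R : Representation K G V) (S : Representation K G W) :
    classInner (kChar K S) (kChar K R) =
      ((finrank K (Representation.IntertwiningMap R S) : ℕ) : ℂ) := by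
  letI : Invertible (Nat.card G : K) :=
    invertibleOfNonzero (Nat.cast_ne_zero.mpr Nat.card_pos.ne')
  rw [classInner_eq_sum_map_inv _ (isCharacter_of_isKChar (isKChar_kChar R))]
  have h := congrArg K.subtype (Representation.card_inv_mul_sum_char_mul_char_eq_finrank R S)
  simp only [map_mul, map_inv₀, map_natCast, map_sum] at h
  exact h

/-- Every realised character is a sum of irreducible realised ones. -/
theorem exists_multiset {d : ℕ} (R : Representation K G (Fin d → K)) :
    ∃ s : Multiset (Σ e : ℕ, Representation K G (Fin e → K)),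
      (∀ x ∈ s, x.2.IsIrreducible) ∧ kChar K R = (s.map fun x => kChar K x.2).sum := by
  induction d using Nat.strong_induction_on with
  | _ d ih =>
  classical
  by_cases hd : d = 0
  · subst hd
    refine ⟨0, by simp, ?_⟩
    funext g
    simp [kChar, Representation.character, Subsingleton.elim (R g) 0]
  haveI : Nonempty (Fin d) := ⟨⟨0, Nat.pos_of_ne_zero hd⟩⟩
  by_cases hi : R.IsIrreducible
  · exact ⟨{⟨d, R⟩}, by simpa using hi, by simp⟩
  have hnt : Nontrivial (Subrepresentation R) :=
    ⟨⊥, ⊤, fun e => bot_ne_top (congrArg Subrepresentation.toSubmodule e)⟩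
  obtain ⟨A, hA0, hA1⟩ : ∃ A : Subrepresentation R, A ≠ ⊥ ∧ A ≠ ⊤ := by
    by_contra hcon
    simp only [not_exists, not_and_or, not_not] at hcon
    exact hi ⟨fun q => hcon q⟩
  haveI : NeZero (Nat.card G : K) := ⟨Nat.cast_ne_zero.mpr Nat.card_pos.ne'⟩
  haveI : ComplementedLattice (Subrepresentation R) :=
    (Subrepresentation.subrepresentationSubmoduleOrderIso (ρ := R)).symm.complementedLattice
  obtain ⟨B, hB⟩ := exists_isCompl A
  have hc : IsCompl A.toSubmodule B.toSubmodule := by
    rw [isCompl_iff, disjoint_iff, codisjoint_iff, ← Subrepresentation.toSubmodule_inf,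
      ← Subrepresentation.toSubmodule_sup, hB.inf_eq_bot, hB.sup_eq_top]
    exact ⟨rfl, rfl⟩
  have hlt : ∀ C : Subrepresentation R, C ≠ ⊤ → finrank K C.toSubmodule < d := fun C hC => by
    have := Submodule.finrank_lt (s := C.toSubmodule)
      (fun h => hC (Subrepresentation.toSubmodule_injective h))
    simpa using this
  have hB1 : B ≠ ⊤ := fun h => hA0 (eq_bot_of_isCompl_top (h ▸ hB))
  have hsum : kChar K R = kChar K A.toRepresentation + kChar K B.toRepresentation := by
    funext g
    simp only [kChar, Pi.add_apply]
    rw [← Subfield.coe_add]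
    congr 1
    rw [show A.toRepresentation.character g + B.toRepresentation.character g =
      (A.toRepresentation.prod B.toRepresentation).character g from
        (LinearMap.trace_prodMap' (A.toRepresentation g) (B.toRepresentation g)).symm]
    refine congrFun (Representation.char_iso ?_).symm g
    refine Representation.Equiv.mk (Submodule.prodEquivOfIsCompl _ _ hc) fun g => ?_
    ext x <;> simp [Subrepresentation.toRepresentation, Representation.prod]
  obtain ⟨a, RA, hRA, ha⟩ : ∃ a, ∃ RA : Representation K G (Fin a → K), a < d ∧
      kChar K RA = kChar K A.toRepresentation := by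
    refine ⟨finrank K A.toSubmodule,
      { toFun := fun g => (Module.finBasis K A.toSubmodule).equivFun.conj (A.toRepresentation g)
        map_one' := by ext w; simp [LinearEquiv.conj_apply, Pi.single_apply, eq_comm]
        map_mul' := fun g h => by ext w; simp [LinearEquiv.conj_apply] }, hlt A hA1, ?_⟩
    funext g
    simp only [kChar, Representation.character]
    congr 1
    exact LinearMap.trace_conj' _ _
  obtain ⟨b, RB, hRB, hb⟩ : ∃ b, ∃ RB : Representation K G (Fin b → K), b < d ∧
      kChar K RB = kChar K B.toRepresentation := by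
    refine ⟨finrank K B.toSubmodule,
      { toFun := fun g => (Module.finBasis K B.toSubmodule).equivFun.conj (B.toRepresentation g)
        map_one' := by ext w; simp [LinearEquiv.conj_apply, Pi.single_apply, eq_comm]
        map_mul' := fun g h => by ext w; simp [LinearEquiv.conj_apply] }, hlt B hB1, ?_⟩
    funext g
    simp only [kChar, Representation.character]
    congr 1
    exact LinearMap.trace_conj' _ _
  obtain ⟨s, hs, hs'⟩ := ih a hRA RA
  obtain ⟨t, ht, ht'⟩ := ih b hRB RB
  refine ⟨s + t, fun x hx => ?_, ?_⟩
  · rcases Multiset.mem_add.1 hx with h | h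
    · exact hs x h
    · exact ht x h
  · rw [hsum, ← ha, ← hb, hs', ht', Multiset.map_add, Multiset.sum_add]

set_option maxHeartbeats 1000000 in
/-- An irreducible character in the span of realised characters is realised. -/
theorem isKChar_of_span {χ : G → ℂ} (hχ : IsIrrCharacter G χ)
    (l : List ((G → ℂ) × ℤ)) (hl : ∀ t ∈ l, IsKChar K G t.1)
    (hsum : χ = (l.map fun t => (t.2 : ℂ) • t.1).sum) : IsKChar K G χ := by
  classical
  haveI := Fintype.ofFinite G
  have h1 : classInner χ χ = 1 := classInner_self ⟨χ, hχ⟩
  have hlin : ∀ (m : List ((G → ℂ) × ℤ)) (f : G → ℂ),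
      classInner (m.map fun t => (t.2 : ℂ) • t.1).sum f =
        (m.map fun t => (t.2 : ℂ) * classInner t.1 f).sum := fun m f => by
    induction m with
    | nil => simp [classInner_zero_left]
    | cons t m ih =>
      simp [List.map_cons, List.sum_cons, classInner_add_left, classInner_smul_left, ih]
  -- some irreducible representation over `K` meets `χ`
  obtain ⟨d, W, hWirr, hWne⟩ : ∃ (d : ℕ) (W : Representation K G (Fin d → K)),
      W.IsIrreducible ∧ classInner (kChar K W) χ ≠ 0 := by
    by_contra hcon
    simp only [not_exists, not_and, not_not] at hcon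
    have hz : classInner χ χ = 0 := by
      conv_lhs => arg 1; rw [hsum]
      rw [hlin]
      refine List.sum_eq_zero fun x hx => ?_
      obtain ⟨t, ht, rfl⟩ := List.mem_map.1 hx
      obtain ⟨e, R, hR⟩ := hl t ht
      obtain ⟨s, hs, hs'⟩ := exists_multiset R
      have : classInner t.1 χ = 0 := by
        rw [← hR, hs']
        clear hs' hR
        induction s using Multiset.induction with
        | empty => simp [classInner_zero_left]
        | cons x s ih =>
          rw [Multiset.map_cons, Multiset.sum_cons, classInner_add_left,
            hcon x.1 x.2 (hs x (Multiset.mem_cons_self x s)),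
            ih fun y hy => hs y (Multiset.mem_cons_of_mem hy), add_zero]
      rw [this, mul_zero]
    rw [h1] at hz
    exact one_ne_zero hz
  haveI := hWirr
  set φ := kChar K W with hφdef
  have hφ : IsCharacter G φ := isCharacter_of_isKChar ⟨d, W, rfl⟩
  obtain ⟨e, he⟩ : ∃ e : ℕ, classInner φ φ = e := exists_nat_classInner' hφ hφ
  obtain ⟨r, hr⟩ : ∃ r : ℕ, classInner φ χ = r := exists_nat_classInner hφ ⟨χ, hχ⟩
  -- `e` divides `r`
  have hdvd : ∀ R : ℕ, ∀ f : G → ℂ, IsKChar K G f → classInner φ f = R → e ∣ R := by
    intro R f hf hR
    obtain ⟨a, S, rfl⟩ := hf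
    obtain ⟨s, hs, hs'⟩ := exists_multiset S
    rw [hs'] at hR
    clear hs' S
    have : ∃ c : ℕ, classInner φ (s.map fun x => kChar K x.2).sum = ((e * c : ℕ) : ℂ) := by
      clear hR
      induction s using Multiset.induction with
      | empty => exact ⟨0, by simp [classInner]⟩
      | cons x s ih =>
        obtain ⟨c, hc⟩ := ih fun y hy => hs y (Multiset.mem_cons_of_mem hy)
        haveI := hs x (Multiset.mem_cons_self x s)
        rw [Multiset.map_cons, Multiset.sum_cons]
        have hadd : classInner φ (kChar K x.2 + (s.map fun y => kChar K y.2).sum) =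
            classInner φ (kChar K x.2) + classInner φ (s.map fun y => kChar K y.2).sum := by
          simp [classInner, mul_add, Finset.sum_add_distrib]
        rw [hadd, hc]
        cases isEmpty_or_nonempty (Representation.Equiv x.2 W) with
        | inl hemp =>
          refine ⟨c, ?_⟩
          rw [hφdef, classInner_kChar, finrank_zero_of_subsingleton]
          simp
        | inr hne =>
          obtain ⟨ψ⟩ := hne
          refine ⟨c + 1, ?_⟩
          have : kChar K x.2 = φ := by
            funext g
            simp only [hφdef, kChar, Representation.char_iso ψ]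
          rw [this, he]
          push_cast
          ring
    obtain ⟨c, hc⟩ := this
    rw [hc] at hR
    exact ⟨c, by exact_mod_cast hR.symm⟩
  have hdz : (e : ℤ) ∣ (r : ℤ) := by
    have hrr : ((r : ℤ) : ℂ) = classInner φ χ := by rw [hr]; simp
    have hexp : classInner φ χ = conj (classInner χ φ) := (classInner_conj_symm χ φ).symm
    have key : ∀ m : List ((G → ℂ) × ℤ), (∀ t ∈ m, IsKChar K G t.1) →
        ∃ c : ℤ, (m.map fun t => (t.2 : ℂ) * classInner t.1 φ).sum = (((e : ℤ) * c : ℤ) : ℂ) := by
      intro m
      induction m with
      | nil => intro _; exact ⟨0, by simp⟩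
      | cons t m ih =>
        intro hm
        obtain ⟨c, hc⟩ := ih fun u hu => hm u (List.mem_cons_of_mem t hu)
        obtain ⟨R, hR⟩ := exists_nat_classInner' hφ (isCharacter_of_isKChar (hm t List.mem_cons_self))
        obtain ⟨k, hk⟩ := hdvd R t.1 (hm t List.mem_cons_self) hR
        refine ⟨t.2 * k + c, ?_⟩
        rw [List.map_cons, List.sum_cons, hc, ← classInner_conj_symm φ t.1, hR, hk, map_natCast]
        push_cast
        ring
    obtain ⟨c, hc⟩ := key l hl
    refine ⟨c, ?_⟩
    have h2 : ((r : ℤ) : ℂ) = (((e : ℤ) * c : ℤ) : ℂ) := by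
      rw [hrr, hexp, hsum, hlin, hc, map_intCast]
    exact_mod_cast h2
  have hr0 : r ≠ 0 := fun h => hWne (by rw [hr, h, Nat.cast_zero])
  -- Bessel
  have hbes : r * r ≤ e := by
    obtain ⟨c, hc, hc'⟩ := exists_nat_coeff hφ
    have h2 : e = ∑ ψ : IrrCharacter G, c ψ * c ψ := by
      have := classInner_eq_sum (isClassFunction_of_isCharacter hφ) φ
      simp only [hc', map_natCast, he] at this
      exact_mod_cast this
    have h3 : c ⟨χ, hχ⟩ = r := by
      have := hc' ⟨χ, hχ⟩
      rw [hr] at this
      exact_mod_cast this.symm
    rw [h2, ← h3]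
    exact Finset.single_le_sum (f := fun ψ => c ψ * c ψ) (fun ψ _ => Nat.zero_le _)
      (Finset.mem_univ _)
  have hle : e ≤ r := Nat.le_of_dvd (Nat.pos_of_ne_zero hr0) (Int.natCast_dvd_natCast.1 hdz)
  have hr1 : r = 1 := by
    by_contra hne
    have h2 : 2 * r ≤ r * r := Nat.mul_le_mul_right r (by omega)
    omega
  have he1 : e = 1 := by
    subst hr1
    omega
  have hφirr : IsIrrCharacter G φ := isIrrCharacter_of_classInner_self hφ (by rw [he, he1, Nat.cast_one])
  by_cases heq : φ = χ
  · exact ⟨d, W, heq⟩
  · exact absurd (classInner_of_ne (χ := ⟨φ, hφirr⟩) (ψ := ⟨χ, hχ⟩)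
      (fun hne => heq (congrArg Subtype.val hne))) hWne

end inner

end CfsgLib.SplitField32
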